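import Cfsg.Agent.Lib.Helper29.S1683.Data

set_option autoImplicit false

namespace Cfsg.Agent.Lib.Helper29.S1683

open Cfsg.Agent.Lib.Helper29.TcTrace Cfsg.Agent.Lib.Helper29.TcCert Cfsg.Agent.Lib.Helper29.TcPerm

theorem lblk_0 : chkPBlk P 4 15 256 2058 0 0x7737473733352547764763753553535525554775754765555437774252547773352547744763733355535372547767653755553742765525547575437775425254776433742755374276555543773765452547735243154727676433742735257352547764337424317764273537243174273763534173735654755435423290 = true := by decide +kernel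
theorem lblk_1 : chkPBlk P 4 15 256 2058 1 0x2326434243424242737427337355537376423272742737353335554737333347347333555232766435235735476433424342742737427353573742737353517355537534232727427365355547776427323323423735337355457547534763733355255547747555544735355547437642327274273733535257735545431753 = true := by decide +kernel
theorem lblk_2 : chkPBlk P 4 15 256 2058 2 0x5476433427427427333336543233233654643264336432776433424237423522766432357354764342342374274274273335537422242342447427336552377376547575425542554373654527352764354734342547342734232547764334273742734233742333553527643523573547643434276374273335552664342324 = true := by decide +kernel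
theorem lo_0_1 : ∀ b, 0 ≤ b → b < 1 → ∃ J, chkPBlk P 4 15 256 2058 b J = true := fun b h1 h2 => by
  have hb : b = 0 := Nat.le_antisymm (Nat.le_of_lt_succ h2) h1
  subst hb; exact ⟨_, lblk_0⟩
theorem lo_1_2 : ∀ b, 1 ≤ b → b < 2 → ∃ J, chkPBlk P 4 15 256 2058 b J = true := fun b h1 h2 => by
  have hb : b = 1 := Nat.le_antisymm (Nat.le_of_lt_succ h2) h1
  subst hb; exact ⟨_, lblk_1⟩
theorem lo_2_3 : ∀ b, 2 ≤ b → b < 3 → ∃ J, chkPBlk P 4 15 256 2058 b J = true := fun b h1 h2 => by
  have hb : b = 2 := Nat.le_antisymm (Nat.le_of_lt_succ h2) h1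
  subst hb; exact ⟨_, lblk_2⟩
theorem lo_1_3 : ∀ b, 1 ≤ b → b < 3 → ∃ J, chkPBlk P 4 15 256 2058 b J = true := fun b h1 h2 =>
  if h : b < 2 then lo_1_2 b h1 h else lo_2_3 b (Nat.le_of_not_lt h) h2
theorem lo_0_3 : ∀ b, 0 ≤ b → b < 3 → ∃ J, chkPBlk P 4 15 256 2058 b J = true := fun b h1 h2 =>
  if h : b < 1 then lo_0_1 b h1 h else lo_1_3 b (Nat.le_of_not_lt h) h2

end Cfsg.Agent.Lib.Helper29.S1683
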