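import Cfsg.Agent.Lib.Helper29.S1683.Data

set_option autoImplicit false

namespace Cfsg.Agent.Lib.Helper29.S1683

open Cfsg.Agent.Lib.Helper29.TcTrace Cfsg.Agent.Lib.Helper29.TcCert Cfsg.Agent.Lib.Helper29.TcPerm

theorem lblk_3 : chkPBlk P 4 15 256 2058 3 0x3654263765425423654263773765422364327734263573672532547363527643547354735476434242643336452764354764342426357542352776537765465435553752267653557426577645354252755342424265437776452764325477342643422547764342742423342655737654575425354255437365452764337642 = true := by decide +kernel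
theorem lblk_4 : chkPBlk P 4 15 256 2058 4 0x3654754223545354727365454645454233276263725425736354235425373623336223573654573654333545756573533325752377635376437235277565435276444327657765425276543777654235476434242363532547765335553722767653555522766435555276435476435476434274274254252763625462522663 = true := by decide +kernel
theorem lblk_5 : chkPBlk P 4 15 256 2058 5 0x776433424342763423742373742733355735553753773342264322737427373653732573555375477373476342734273423373537735525315375477376547427357373554157354377575423525547757543531754273e332262754324543223653365344233762733657374742543525775412735555344356575275455472 = true := by decide +kernel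
theorem lo_3_4 : ∀ b, 3 ≤ b → b < 4 → ∃ J, chkPBlk P 4 15 256 2058 b J = true := fun b h1 h2 => by
  have hb : b = 3 := Nat.le_antisymm (Nat.le_of_lt_succ h2) h1
  subst hb; exact ⟨_, lblk_3⟩
theorem lo_4_5 : ∀ b, 4 ≤ b → b < 5 → ∃ J, chkPBlk P 4 15 256 2058 b J = true := fun b h1 h2 => by
  have hb : b = 4 := Nat.le_antisymm (Nat.le_of_lt_succ h2) h1
  subst hb; exact ⟨_, lblk_4⟩
theorem lo_5_6 : ∀ b, 5 ≤ b → b < 6 → ∃ J, chkPBlk P 4 15 256 2058 b J = true := fun b h1 h2 => by
  have hb : b = 5 := Nat.le_antisymm (Nat.le_of_lt_succ h2) h1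
  subst hb; exact ⟨_, lblk_5⟩
theorem lo_4_6 : ∀ b, 4 ≤ b → b < 6 → ∃ J, chkPBlk P 4 15 256 2058 b J = true := fun b h1 h2 =>
  if h : b < 5 then lo_4_5 b h1 h else lo_5_6 b (Nat.le_of_not_lt h) h2
theorem lo_3_6 : ∀ b, 3 ≤ b → b < 6 → ∃ J, chkPBlk P 4 15 256 2058 b J = true := fun b h1 h2 =>
  if h : b < 4 then lo_3_4 b h1 h else lo_4_6 b (Nat.le_of_not_lt h) h2

end Cfsg.Agent.Lib.Helper29.S1683
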