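import Cfsg.Agent.Lib.Helper29.S1683.Data

set_option autoImplicit false

namespace Cfsg.Agent.Lib.Helper29.S1683

open Cfsg.Agent.Lib.Helper29.TcTrace Cfsg.Agent.Lib.Helper29.TcCert Cfsg.Agent.Lib.Helper29.TcPerm

theorem lblk_6 : chkPBlk P 4 15 256 2058 6 0x37654e3535535733527735747373332275423543774543227545573655736333633532547276655737654554335525337254726767654555455737654236542553754235537376542527643354764342426465573765454263765435426554377376542527352764364325477342254776433424274233342527643765423254 = true := by decide +kernel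
theorem lblk_7 : chkPBlk P 4 15 256 2058 7 0x72343733473265437265676357263653455437767427637653654635365453517265377635376542275654352542736537654335423765427325433254321e4235474763275534723373743753473765343437752737473532355735537765242737373552514774373525353757753735554154317742537737525417763765 = true := by decide +kernel
theorem lblk_8 : chkPBlk P 4 15 256 2058 8 0x5323732322 = true := by decide +kernel
theorem lo_6_7 : ∀ b, 6 ≤ b → b < 7 → ∃ J, chkPBlk P 4 15 256 2058 b J = true := fun b h1 h2 => by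
  have hb : b = 6 := Nat.le_antisymm (Nat.le_of_lt_succ h2) h1
  subst hb; exact ⟨_, lblk_6⟩
theorem lo_7_8 : ∀ b, 7 ≤ b → b < 8 → ∃ J, chkPBlk P 4 15 256 2058 b J = true := fun b h1 h2 => by
  have hb : b = 7 := Nat.le_antisymm (Nat.le_of_lt_succ h2) h1
  subst hb; exact ⟨_, lblk_7⟩
theorem lo_8_9 : ∀ b, 8 ≤ b → b < 9 → ∃ J, chkPBlk P 4 15 256 2058 b J = true := fun b h1 h2 => by
  have hb : b = 8 := Nat.le_antisymm (Nat.le_of_lt_succ h2) h1
  subst hb; exact ⟨_, lblk_8⟩
theorem lo_7_9 : ∀ b, 7 ≤ b → b < 9 → ∃ J, chkPBlk P 4 15 256 2058 b J = true := fun b h1 h2 =>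
  if h : b < 8 then lo_7_8 b h1 h else lo_8_9 b (Nat.le_of_not_lt h) h2
theorem lo_6_9 : ∀ b, 6 ≤ b → b < 9 → ∃ J, chkPBlk P 4 15 256 2058 b J = true := fun b h1 h2 =>
  if h : b < 7 then lo_6_7 b h1 h else lo_7_9 b (Nat.le_of_not_lt h) h2

end Cfsg.Agent.Lib.Helper29.S1683
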